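import Cfsg.Agent.H670.S8.Sharp
import Cfsg.Agent.OddOrderCharacters.PF13.SumBound
import Cfsg.Agent.Lib.SchurBound

/-!
# Characters of degree prime to `p` over a linear character (helper320, for S4908)

`card_le`: `V` normal in `T`, `l` a linear character of `V`, `t` a `p`-element of `T`: at most `|C_{T/V}(tV)|` irreducible
characters over `l` have degree prime to `p`.
-/

set_option autoImplicit false
set_option linter.unusedSectionVars false
set_option linter.style.haveILetI false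

universe u v

namespace Cfsg.Agent.H320.SD

open Cfsg Cfsg.Agent.Characters.Core Cfsg.Agent.H686.CharKit Cfsg.Agent.H672 Cfsg.Agent.H211.Hup Cfsg.Agent.H704.S8
open Subgroup
open scoped ComplexConjugate commutatorElement

section Abs

variable {T : Type u} [Group T] [Finite T]

theorem norm_units {N : Type*} [Group N] [Finite N] (l : N →* ℂˣ) (n : N) : ‖(l n : ℂ)‖ = 1 := by
  have h : (l n : ℂ) ^ Nat.card N = 1 := by
    rw [← Units.val_pow_eq_pow_val, ← map_pow, pow_card_eq_one', map_one, Units.val_one]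
  exact Complex.norm_eq_one_of_pow_eq_one h Nat.card_pos.ne'

theorem card_comap (N : Subgroup T) [N.Normal] (C : Subgroup (T ⧸ N)) :
    Nat.card (C.comap (QuotientGroup.mk' N)) = Nat.card N * Nat.card C := by
  have h1 := (C.comap (QuotientGroup.mk' N)).card_mul_index
  have h2 := C.card_mul_index
  have h3 := Subgroup.card_eq_card_quotient_mul_card_subgroup N
  rw [C.index_comap_of_surjective (QuotientGroup.mk'_surjective N)] at h1
  have h4 : C.index ≠ 0 := Subgroup.index_ne_zero_of_finite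
  apply Nat.eq_of_mul_eq_mul_right (Nat.pos_of_ne_zero h4)
  rw [h1, h3, ← h2]
  ring

/-- the conjugates of `g` along `N` are spread evenly -/
theorem fib_le (N : Subgroup T) [N.Normal] (g x : T) :
    Nat.card {w : N × T // (w.1 : T) * (w.2 * g * w.2⁻¹) = x} ≤
      Nat.card N * Nat.card (Subgroup.centralizer ({(g : T ⧸ N)} : Set (T ⧸ N))) := by
  classical
  rw [← card_comap]
  by_cases h : Nonempty {w : N × T // (w.1 : T) * (w.2 * g * w.2⁻¹) = x}
  · obtain ⟨⟨w0, h0⟩⟩ := h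
    have key : ∀ w : {w : N × T // (w.1 : T) * (w.2 * g * w.2⁻¹) = x},
        ((w.1.2 : T) : T ⧸ N) * g * ((w.1.2 : T) : T ⧸ N)⁻¹ = x := by
      intro w
      have h1 := congrArg (QuotientGroup.mk' N) w.2
      rw [map_mul, show QuotientGroup.mk' N (w.1.1 : T) = 1 from (QuotientGroup.eq_one_iff _).2 w.1.1.2, one_mul] at h1
      exact h1
    have hmem : ∀ w : {w : N × T // (w.1 : T) * (w.2 * g * w.2⁻¹) = x}, w0.2⁻¹ * w.1.2 ∈
        (Subgroup.centralizer ({(g : T ⧸ N)} : Set (T ⧸ N))).comap (QuotientGroup.mk' N) := by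
      intro w
      rw [Subgroup.mem_comap, Subgroup.mem_centralizer_singleton_iff, map_mul, map_inv]
      have h1 := key w
      have h2 := key ⟨w0, h0⟩
      rw [← h2, mul_inv_eq_iff_eq_mul] at h1
      show ((w0.2 : T) : T ⧸ N)⁻¹ * (w.1.2 : T) * g = g * (((w0.2 : T) : T ⧸ N)⁻¹ * (w.1.2 : T))
      rw [mul_assoc, h1]
      group
    refine Nat.card_le_card_of_injective (fun w => (⟨w0.2⁻¹ * w.1.2, hmem w⟩ :
      (Subgroup.centralizer ({(g : T ⧸ N)} : Set (T ⧸ N))).comap (QuotientGroup.mk' N))) fun w w' hw => ?_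
    have h1 : w0.2⁻¹ * w.1.2 = w0.2⁻¹ * w'.1.2 := congrArg Subtype.val hw
    have h2 : w.1.2 = w'.1.2 := mul_left_cancel h1
    have h3 : (w.1.1 : T) = (w'.1.1 : T) := by
      have h4 : (w.1.1 : T) * (w.1.2 * g * w.1.2⁻¹) = (w'.1.1 : T) * (w'.1.2 * g * w'.1.2⁻¹) := w.2.trans w'.2.symm
      rw [h2] at h4
      exact mul_right_cancel h4
    exact Subtype.ext (Prod.ext (Subtype.ext h3) h2)
  · rw [not_nonempty_iff] at h
    rw [Nat.card_of_isEmpty]
    exact Nat.zero_le _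

/-- column bound over a linear character of a normal subgroup -/
theorem sum_sq_le (N : Subgroup T) [N.Normal] (l : N →* ℂˣ) (g : T) (S : Finset (IrrCharacter T))
    (hS : ∀ χ ∈ S, Ov N l (χ : T → ℂ)) :
    ∑ χ ∈ S, ‖(χ : T → ℂ) g‖ ^ 2 ≤ Nat.card (Subgroup.centralizer ({(g : T ⧸ N)} : Set (T ⧸ N))) := by
  classical
  have := Fintype.ofFinite T
  have := Fintype.ofFinite N
  set s : ℝ := ∑ χ ∈ S, ‖(χ : T → ℂ) g‖ ^ 2 with hs
  set C : ℕ := Nat.card (Subgroup.centralizer ({(g : T ⧸ N)} : Set (T ⧸ N))) with hC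
  have hs0 : 0 ≤ s := Finset.sum_nonneg fun _ _ => by positivity
  let f : T → ℂ := ∑ χ ∈ S, conj ((χ : T → ℂ) g) • (χ : T → ℂ)
  have hfx : ∀ x, f x = ∑ χ ∈ S, conj ((χ : T → ℂ) g) * (χ : T → ℂ) x := by
    intro x
    show (∑ χ ∈ S, conj ((χ : T → ℂ) g) • (χ : T → ℂ)) x = _
    rw [Finset.sum_apply]
    rfl
  have hfg : f g = (s : ℂ) := by
    rw [hfx, hs, Complex.ofReal_sum]
    refine Finset.sum_congr rfl fun χ _ => ?_
    rw [mul_comm, Complex.mul_conj, Complex.normSq_eq_norm_sq]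
  have hf1 : classInner f f = (s : ℂ) := by
    show classInner (∑ χ ∈ S, conj ((χ : T → ℂ) g) • (χ : T → ℂ)) f = _
    rw [classInner_sum_left, hs, Complex.ofReal_sum]
    refine Finset.sum_congr rfl fun χ hχ => ?_
    rw [classInner_smul_left]
    show _ * classInner (χ : T → ℂ) (∑ ψ ∈ S, conj ((ψ : T → ℂ) g) • (ψ : T → ℂ)) = _
    rw [classInner_sum_right, Finset.sum_eq_single χ]
    · rw [classInner_smul_right, classInner_irr_self χ.2, mul_one, Complex.conj_conj, mul_comm, Complex.mul_conj,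
        Complex.normSq_eq_norm_sq]
    · intro ψ _ hne
      rw [classInner_smul_right, classInner_irr_ne χ.2 ψ.2 (fun h => hne (Subtype.ext h.symm)), mul_zero]
    · intro h; exact absurd hχ h
  have hf2 : ∑ x : T, ‖f x‖ ^ 2 = Nat.card T * s := by
    have h1 := classInner_self_eq_ofReal f
    rw [hf1, Complex.ofReal_inj] at h1
    have h2 : (Nat.card T : ℝ) ≠ 0 := Nat.cast_ne_zero.2 Nat.card_pos.ne'
    rw [h1, ← mul_assoc, mul_inv_cancel₀ h2, one_mul]
    exact Finset.sum_congr rfl fun x _ => (Complex.normSq_eq_norm_sq _).symm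
  have hfc : ∀ (w : N) (y : T), ‖f ((w : T) * (y * g * y⁻¹))‖ = s := by
    intro w y
    have h1 : f ((w : T) * (y * g * y⁻¹)) = (l w : ℂ) * f g := by
      rw [hfx, hfx, Finset.mul_sum]
      refine Finset.sum_congr rfl fun χ hχ => ?_
      rw [hS χ hχ w, isCharacter_isClassFunction (isIrr_isCharacter χ.2) g y]
      ring
    rw [h1, norm_mul, norm_units, one_mul, hfg, Complex.norm_real, Real.norm_of_nonneg hs0]
  have h1 : ∑ w : N × T, ‖f ((w.1 : T) * (w.2 * g * w.2⁻¹))‖ ^ 2 = Nat.card N * Nat.card T * s ^ 2 := by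
    simp only [hfc]
    rw [Finset.sum_const, Finset.card_univ, nsmul_eq_mul, Fintype.card_prod, Nat.card_eq_fintype_card,
      Nat.card_eq_fintype_card]
    push_cast
    ring
  have h2 : ∑ w : N × T, ‖f ((w.1 : T) * (w.2 * g * w.2⁻¹))‖ ^ 2 ≤ (Nat.card N * C : ℕ) * ∑ x : T, ‖f x‖ ^ 2 := by
    have h3 : ∀ w : N × T, ‖f ((w.1 : T) * (w.2 * g * w.2⁻¹))‖ ^ 2 =
        ∑ x : T, if (w.1 : T) * (w.2 * g * w.2⁻¹) = x then ‖f x‖ ^ 2 else 0 := by
      intro w
      rw [Finset.sum_ite_eq Finset.univ ((w.1 : T) * (w.2 * g * w.2⁻¹)), if_pos (Finset.mem_univ _)]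
    rw [Finset.sum_congr rfl fun w _ => h3 w, Finset.sum_comm, Finset.mul_sum]
    refine Finset.sum_le_sum fun x _ => ?_
    rw [← Finset.sum_filter, Finset.sum_const, nsmul_eq_mul]
    refine mul_le_mul_of_nonneg_right ?_ (by positivity)
    have h4 := fib_le N g x
    rw [Nat.card_eq_fintype_card, Fintype.card_subtype] at h4
    exact_mod_cast h4
  rw [h1, hf2] at h2
  have hN : (0 : ℝ) < Nat.card N := by exact_mod_cast Nat.card_pos
  have hT : (0 : ℝ) < Nat.card T := by exact_mod_cast Nat.card_pos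
  rcases hs0.eq_or_lt with h0 | h0
  · rw [← h0]; positivity
  · have h5 : (Nat.card N * Nat.card T * s : ℝ) * s ≤ (Nat.card N * Nat.card T * s) * C := by
      push_cast at h2
      nlinarith
    exact le_of_mul_le_mul_left h5 (by positivity)

theorem apply_ne_zero {χ : T → ℂ} (hχ : IsCharacter T χ) {p : ℕ} (hp : p.Prime) (h : ¬ p ∣ charDegree χ) {g : T}
    (hg : ∃ k, orderOf g = p ^ k) : χ g ≠ 0 := by
  intro h0
  obtain ⟨k, hk⟩ := hg
  have h1 := Cfsg.Agent.Lib.SchurBound.dvd_sub_of_pow hχ hp (k := k) (by rw [← hk]; exact pow_orderOf_eq_one g)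
    (charDegree_cast hχ).symm (c := 0) (by rw [h0]; norm_num)
  rw [sub_zero] at h1
  exact h (by exact_mod_cast h1)

/-- **Lemma A** -/
theorem card_le (N : Subgroup T) [N.Normal] (l : N →* ℂˣ) {p : ℕ} (hp : p.Prime) {t : T} (ht : ∃ k, orderOf t = p ^ k)
    (S : Finset (IrrCharacter T)) (hS : ∀ χ ∈ S, Ov N l (χ : T → ℂ)) (hS' : ∀ χ ∈ S, ¬ p ∣ charDegree (χ : T → ℂ)) :
    S.card ≤ Nat.card (Subgroup.centralizer ({(t : T ⧸ N)} : Set (T ⧸ N))) := by
  classical
  have := Fintype.ofFinite T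
  set C : ℕ := Nat.card (Subgroup.centralizer ({(t : T ⧸ N)} : Set (T ⧸ N))) with hC
  set X : Finset T := Finset.univ.filter fun g => ∃ m : ℕ, m.Coprime (Nat.card T) ∧ g = t ^ m with hX
  have hXt : t ∈ X := Finset.mem_filter.2 ⟨Finset.mem_univ _, 1, Nat.coprime_one_left _, (pow_one t).symm⟩
  have hXc : ∀ g ∈ X, ∀ m : ℕ, m.Coprime (Nat.card T) → g ^ m ∈ X := by
    intro g hg m hm
    obtain ⟨-, m', hm', rfl⟩ := Finset.mem_filter.1 hg
    exact Finset.mem_filter.2 ⟨Finset.mem_univ _, m' * m, hm'.mul_left hm, (pow_mul t m' m).symm⟩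
  have hback : ∀ g ∈ X, ∃ m : ℕ, g ^ m = t := by
    intro g hg
    obtain ⟨-, m', hm', rfl⟩ := Finset.mem_filter.1 hg
    exact exists_pow_eq_self_of_coprime (hm'.coprime_dvd_right (orderOf_dvd_natCard t))
  have hXo : ∀ g ∈ X, ∃ k, orderOf g = p ^ k := by
    intro g hg
    obtain ⟨k, hk⟩ := ht
    obtain ⟨-, m', hm', rfl⟩ := Finset.mem_filter.1 hg
    have h1 : orderOf (t ^ m') ∣ p ^ k := hk ▸ orderOf_pow_dvd m'
    obtain ⟨j, -, hj⟩ := (Nat.dvd_prime_pow hp).1 h1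
    exact ⟨j, hj⟩
  have hle : ∀ g ∈ X, Nat.card (Subgroup.centralizer ({(g : T ⧸ N)} : Set (T ⧸ N))) ≤ C := by
    intro g hg
    obtain ⟨m, hm⟩ := hback g hg
    refine Subgroup.card_le_of_le ?_
    intro x hx
    rw [Subgroup.mem_centralizer_singleton_iff] at hx ⊢
    rw [← hm, QuotientGroup.mk_pow]
    exact (Commute.pow_right (show Commute x (g : T ⧸ N) from hx) m)
  have h1 : ∀ χ ∈ S, (X.card : ℝ) ≤ ∑ g ∈ X, ‖(χ : T → ℂ) g‖ ^ 2 := by
    intro χ hχ
    have h2 := Cfsg.Agent.OddOrderCharacters.PF13.SumBound.card_le_sum_sq (G := T) ({()} : Finset Unit)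
      (fun _ => (χ : T → ℂ)) (fun _ _ => ⟨χ, 0, isIrr_isCharacter χ.2, isCharacter_zero, by rw [sub_zero]⟩) X hXc
      (fun g hg => ⟨(), Finset.mem_singleton_self _, apply_ne_zero (isIrr_isCharacter χ.2) hp (hS' χ hχ) (hXo g hg)⟩)
    simpa using h2
  have h2 : (S.card : ℝ) * X.card ≤ C * X.card := by
    calc (S.card : ℝ) * X.card = ∑ _χ ∈ S, (X.card : ℝ) := by rw [Finset.sum_const, nsmul_eq_mul]
      _ ≤ ∑ χ ∈ S, ∑ g ∈ X, ‖(χ : T → ℂ) g‖ ^ 2 := Finset.sum_le_sum h1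
      _ = ∑ g ∈ X, ∑ χ ∈ S, ‖(χ : T → ℂ) g‖ ^ 2 := Finset.sum_comm
      _ ≤ ∑ g ∈ X, (C : ℝ) := Finset.sum_le_sum fun g hg => (sum_sq_le N l g S hS).trans (by exact_mod_cast hle g hg)
      _ = C * X.card := by rw [Finset.sum_const, nsmul_eq_mul, mul_comm]
  have h3 : (0 : ℝ) < X.card := by exact_mod_cast Finset.card_pos.2 ⟨t, hXt⟩
  exact_mod_cast le_of_mul_le_mul_right h2 h3

end Abs

end Cfsg.Agent.H320.SD
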