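import Cfsg.Agent.H320.SD.LemA

/-!
# S4908, box NC: the form with the bounds at all primes (helper320)

`SharpP D T`: the numbers `e i` of characters over a linear character with inertia group `T`, with: for every `p`-element
`t` of `T` at most `|C_T(t)|` of them are prime to `p`.
-/

set_option autoImplicit false
set_option linter.unusedSectionVars false
set_option linter.style.haveILetI false

universe u v w

namespace Cfsg.Agent.H320.SD

open Cfsg Cfsg.Agent.Characters.Core Cfsg.Agent.H686.CharKit Cfsg.Agent.H672 Cfsg.Agent.H211.Hup Cfsg.Agent.H704.S8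
open Subgroup
open scoped ComplexConjugate commutatorElement

/-- the degrees over a linear character with inertia group `T` -/
def SharpP {X : Type v} [Group X] (D : Set ℕ) (T : Subgroup X) : Prop :=
  ∃ (n : ℕ) (e : Fin n → ℕ), n ≤ Nat.card (ConjClasses T) ∧ ∑ i, (e i) ^ 2 = Nat.card T ∧
    (∀ i, 0 < e i ∧ ∃ d ∈ D, T.index * e i ∣ d) ∧
    ∀ p : ℕ, p.Prime → ∀ t : T, (∃ k, orderOf t = p ^ k) →
      Nat.card {i : Fin n // ¬ p ∣ e i} ≤ Nat.card (Subgroup.centralizer ({t} : Set T))

/-- `Chief` with the sharper hypothesis -/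
def ChiefP (c : ℕ) (D : Set ℕ) (X : Type v) [Group X] : Prop :=
  ∀ (Λ : Type u) [CommGroup Λ] [Finite Λ] (ρ : X →* MulAut Λ),
    (∀ x : Λ, x ≠ 1 → ∃ T : Subgroup X, (∀ g : X, g ∈ T ↔ ρ g x = x) ∧ T ≠ ⊤ ∧
      (Nat.card X < c * (Nat.card T * Nat.card (ConjClasses T)) ∧ ∃ d ∈ D, T.index ∣ d) ∧ SharpP D T) →
    ∀ x : Λ, x = 1

theorem SharpP.sharp {X : Type v} [Group X] {D : Set ℕ} {T : Subgroup X} (h : SharpP D T) : H670.S8.Sharp D T := by
  obtain ⟨n, e, h1, h2, h3, -⟩ := h
  refine ⟨Multiset.map e Finset.univ.val, ?_, ?_, ?_⟩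
  · intro x hx
    obtain ⟨i, -, rfl⟩ := Multiset.mem_map.1 hx
    exact (h3 i).2
  · rw [Multiset.map_map]
    exact h2
  · rw [Multiset.card_map]
    exact le_trans (le_of_eq (by rw [Finset.card_val, Finset.card_univ, Fintype.card_fin])) h1

/-- `ChiefS` implies `ChiefP` -/
theorem ChiefP.of_chiefS {c : ℕ} {D : Set ℕ} {X : Type v} [Group X] (h : H670.S8.ChiefS.{u} c D X) : ChiefP.{u} c D X := by
  intro Λ _ _ ρ hT
  refine h Λ ρ fun x hx => ?_
  obtain ⟨T, h1, h2, h3, h4⟩ := hT x hx
  exact ⟨T, h1, h2, h3, h4.sharp⟩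

theorem ChiefP.of_chief {c : ℕ} {D : Set ℕ} {X : Type v} [Group X] (h : Chief.{u} c D X) : ChiefP.{u} c D X :=
  ChiefP.of_chiefS (H670.S8.ChiefS.of_chief h)

theorem SharpP.old {c : ℕ} {X : Type v} [Group X] [Finite X] {D : Set ℕ} (hD0 : ∀ d ∈ D, 0 < d)
    (hD : ∀ d ∈ D, d ^ 2 < c * Nat.card X) {T : Subgroup X} (h : SharpP D T) :
    Nat.card X < c * (Nat.card T * Nat.card (ConjClasses T)) ∧ ∃ d ∈ D, T.index ∣ d := by
  obtain ⟨n, e, h3, h4, h5, -⟩ := h
  have hT0 : 0 < T.index := Nat.pos_of_ne_zero Subgroup.index_ne_zero_of_finite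
  have hc0 : 0 < Nat.card T := Nat.card_pos
  have hn : 0 < n := by
    rcases Nat.eq_zero_or_pos n with h0 | h0
    · subst h0
      rw [Fin.sum_univ_zero] at h4
      omega
    · exact h0
  refine ⟨?_, ?_⟩
  · have h6 : ∀ i, (T.index * e i) ^ 2 < c * Nat.card X := by
      intro i
      obtain ⟨-, d, hd, hdd⟩ := h5 i
      exact lt_of_le_of_lt (Nat.pow_le_pow_left (Nat.le_of_dvd (hD0 d hd) hdd) 2) (hD d hd)
    have : Nonempty (Fin n) := ⟨⟨0, hn⟩⟩
    have h7 := Finset.sum_lt_sum_of_nonempty (s := (Finset.univ : Finset (Fin n))) Finset.univ_nonempty fun i _ => h6 i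
    rw [Finset.sum_const, Finset.card_univ, Fintype.card_fin, smul_eq_mul] at h7
    have h8 : ∑ i, (T.index * e i) ^ 2 = T.index ^ 2 * Nat.card T := by
      rw [← h4, Finset.mul_sum]
      exact Finset.sum_congr rfl fun i _ => by ring
    rw [h8] at h7
    have hX : Nat.card X = Nat.card T * T.index := (T.card_mul_index).symm
    rw [hX] at h7 ⊢
    have h9 : T.index < c * n := by
      have h10 : (T.index * Nat.card T) * T.index < (T.index * Nat.card T) * (c * n) := by nlinarith
      exact Nat.lt_of_mul_lt_mul_left h10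
    have h10 : T.index < c * Nat.card (ConjClasses T) := h9.trans_le (Nat.mul_le_mul_left c h3)
    calc Nat.card T * T.index < Nat.card T * (c * Nat.card (ConjClasses T)) := Nat.mul_lt_mul_of_pos_left h10 hc0
      _ = c * (Nat.card T * Nat.card (ConjClasses T)) := by ring
  · obtain ⟨-, d, hd, hdd⟩ := h5 ⟨0, hn⟩
    exact ⟨d, hd, (dvd_mul_right _ _).trans hdd⟩

theorem card_centralizer_congr {G : Type v} {H : Type w} [Group G] [Group H] (e : G ≃* H) (x : G) :
    Nat.card (Subgroup.centralizer ({x} : Set G)) = Nat.card (Subgroup.centralizer ({e x} : Set H)) := by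
  refine Nat.card_congr ⟨fun g => ⟨e g, ?_⟩, fun g => ⟨e.symm g, ?_⟩, fun g => ?_, fun g => ?_⟩
  · rw [Subgroup.mem_centralizer_singleton_iff, ← map_mul, ← map_mul, Subgroup.mem_centralizer_singleton_iff.1 g.2]
  · rw [Subgroup.mem_centralizer_singleton_iff]
    apply e.injective
    rw [map_mul, map_mul, e.apply_symm_apply, Subgroup.mem_centralizer_singleton_iff.1 g.2]
  · exact Subtype.ext (e.symm_apply_apply _)
  · exact Subtype.ext (e.apply_symm_apply _)

/-- lifting `p`-elements -/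
theorem exists_lift {A : Type u} {B : Type v} [Group A] [Finite A] [Group B] (F : A →* B) {p : ℕ} (hp : p.Prime) (y : A)
    {k : ℕ} (hk : orderOf (F y) = p ^ k) : ∃ a : ℕ, (∃ j, orderOf (y ^ a) = p ^ j) ∧ F (y ^ a) = F y := by
  have h0 : orderOf y ≠ 0 := (orderOf_pos y).ne'
  obtain ⟨i, m, hm, him⟩ := Nat.exists_eq_pow_mul_and_not_dvd h0 p hp.ne_one
  have hco : (p ^ i).Coprime m := Nat.Coprime.pow_left i ((Nat.Prime.coprime_iff_not_dvd hp).2 hm)
  have hdk : p ^ k ∣ p ^ i := by
    have h1 : p ^ k ∣ p ^ i * m := by rw [← hk, ← him]; exact orderOf_map_dvd F y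
    exact (Nat.Coprime.pow_left k ((Nat.Prime.coprime_iff_not_dvd hp).2 hm)).dvd_of_dvd_mul_right h1
  obtain ⟨a, ha1, ha2⟩ := Nat.chineseRemainder hco 1 0
  refine ⟨a, ?_, ?_⟩
  · have h1 : orderOf (y ^ a) ∣ p ^ i := by
      rw [orderOf_dvd_iff_pow_eq_one, ← pow_mul, ← orderOf_dvd_iff_pow_eq_one, him, mul_comm a]
      exact Nat.mul_dvd_mul_left _ ((Nat.modEq_zero_iff_dvd).1 ha2)
    obtain ⟨j, -, hj⟩ := (Nat.dvd_prime_pow hp).1 h1
    exact ⟨j, hj⟩
  · rw [map_pow]
    have h2 : F y ^ a = F y ^ 1 := by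
      rw [pow_eq_pow_iff_modEq, hk]
      exact ha1.of_dvd hdk
    rw [h2, pow_one]

section Nc

variable {P : Type u} [Group P] [Finite P]

open Cfsg.Agent.OddOrderCharacters.PF9.CliffGen (irr_ind resTo)
open Cfsg.Agent.OddOrderCharacters.NormalInduced (conjFn)

/-- the degrees over a linear character -/
theorem nc_sharpP (V : Subgroup P) [hV : V.Normal] (l : V →* ℂˣ) (T : Subgroup P)
    (hT : ∀ g, g ∈ T ↔ ∀ v : V, l (MulAut.conjNormal g v) = l v) (hVT : V ≤ T) :
    ∃ (n : ℕ) (e : Fin n → ℕ), n ≤ Nat.card (ConjClasses (T ⧸ V.subgroupOf T)) ∧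
      ∑ i, (e i) ^ 2 = (V.subgroupOf T).index ∧
      (∀ i, 0 < e i ∧ ∃ χ : IrrCharacter P, charDegree (χ : P → ℂ) = T.index * e i) ∧
      ∀ p : ℕ, p.Prime → ∀ t : T, (∃ k, orderOf t = p ^ k) → Nat.card {i : Fin n // ¬ p ∣ e i} ≤
        Nat.card (Subgroup.centralizer ({(t : T ⧸ V.subgroupOf T)} : Set (T ⧸ V.subgroupOf T))) := by
  classical
  have := Fintype.ofFinite P
  have := Fintype.ofFinite V
  have := Fintype.ofFinite T
  have := finite_irr (G := T)
  have := Fintype.ofFinite (IrrCharacter T)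
  let e : V.subgroupOf T ≃* V := Subgroup.subgroupOfEquivOfLe hVT
  let l' : V.subgroupOf T →* ℂˣ := l.comp e.toMonoidHom
  have hl' : ∀ x : V.subgroupOf T, l' x = l (e x) := fun _ => rfl
  have he : ∀ x : V.subgroupOf T, ((e x : V) : P) = ((x : T) : P) := fun _ => rfl
  have hinv : ∀ (t : T) (v : V.subgroupOf T), l' (MulAut.conjNormal t v) = l' v := by
    intro t v
    rw [hl', hl', ← (hT t).1 t.2 (e v)]
    congr 1
  have hsum := sum_sq_ov (V.subgroupOf T) l' hinv
  set S := Finset.univ.filter fun χ : IrrCharacter T => Ov (V.subgroupOf T) l' (χ : T → ℂ) with hS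
  have hdeg' : ∀ χ ∈ S, ∃ ψ : IrrCharacter P, charDegree (ψ : P → ℂ) = T.index * charDegree (χ : T → ℂ) := by
    intro χ hχ
    have hov : Ov (V.subgroupOf T) l' (χ : T → ℂ) := (Finset.mem_filter.1 hχ).2
    have h1 : IsIrrCharacter P (indFun T (χ : T → ℂ)) := by
      refine irr_ind (N := V) (θ := lf l) (isIrr_lf l) (fun g => ?_) hVT χ.2 ?_
      · rw [hT, funext_iff]
        refine forall_congr' fun v => ?_
        exact ⟨fun h => congrArg Units.val h, fun h => Units.ext h⟩
      · have h2 : resTo hVT (χ : T → ℂ) = ((χ : T → ℂ) 1) • lf l := by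
          funext v
          have h3 := hov (e.symm v) 1
          rw [mul_one, hl', MulEquiv.apply_symm_apply] at h3
          have h4 : ((e.symm v : V.subgroupOf T) : T) = ⟨(v : P), hVT v.2⟩ := by
            apply Subtype.ext
            rw [← he, MulEquiv.apply_symm_apply]
          rw [h4] at h3
          show (χ : T → ℂ) ⟨(v : P), hVT v.2⟩ = _
          rw [h3, Pi.smul_apply, smul_eq_mul, lf_apply, mul_comm]
        rw [h2, classInner_smul_left, classInner_irr_self (isIrr_lf l), mul_one]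
        exact isIrr_apply_one_ne_zero χ.2
    have h5 : charDegree (indFun T (χ : T → ℂ)) = T.index * charDegree (χ : T → ℂ) := by
      apply charDegree_of_eq
      rw [OddOrderCharacters.InertiaAbelian.indFun_one, ← charDegree_irr χ]
      push_cast; rfl
    exact ⟨⟨_, h1⟩, h5⟩
  refine ⟨S.card, fun i => charDegree ((S.equivFin.symm i : IrrCharacter T) : T → ℂ), ?_, ?_, fun i => ⟨?_, ?_⟩, ?_⟩
  · have h11 := card_ov_le (V.subgroupOf T) l'
    rwa [Nat.card_eq_fintype_card, Fintype.card_subtype] at h11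
  · rw [← hsum, ← Finset.sum_coe_sort S fun χ => charDegree (χ : T → ℂ) ^ 2]
    exact Fintype.sum_equiv S.equivFin.symm _ _ fun i => rfl
  · obtain ⟨m, hm, hm'⟩ := isIrr_apply_one (S.equivFin.symm i : IrrCharacter T).2
    show 0 < charDegree ((S.equivFin.symm i : IrrCharacter T) : T → ℂ)
    rw [charDegree_of_eq hm']
    exact hm
  · exact hdeg' _ (S.equivFin.symm i).2
  · intro p hp t ht
    have h20 := card_le (V.subgroupOf T) l' hp ht (S.filter fun χ => ¬ p ∣ charDegree (χ : T → ℂ))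
      (fun χ hχ => (Finset.mem_filter.1 (Finset.mem_filter.1 hχ).1).2) (fun χ hχ => (Finset.mem_filter.1 hχ).2)
    refine le_trans ?_ h20
    have h21 : Nat.card {i : Fin S.card // ¬ p ∣ charDegree ((S.equivFin.symm i : IrrCharacter T) : T → ℂ)} ≤
        Nat.card (S.filter fun χ => ¬ p ∣ charDegree (χ : T → ℂ) : Finset (IrrCharacter T)) := by
      refine Nat.card_le_card_of_injective (fun i => (⟨(S.equivFin.symm i.1 : IrrCharacter T),
        Finset.mem_filter.2 ⟨(S.equivFin.symm i.1).2, i.2⟩⟩ :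
          (S.filter fun χ => ¬ p ∣ charDegree (χ : T → ℂ) : Finset (IrrCharacter T)))) fun i j hij => ?_
      have h22 : ((S.equivFin.symm i.1 : S) : IrrCharacter T) = (S.equivFin.symm j.1 : S) :=
        (Subtype.ext_iff.1 hij :)
      exact Subtype.ext (S.equivFin.symm.injective (Subtype.ext h22))
    refine h21.trans (le_of_eq ?_)
    rw [Nat.card_eq_fintype_card, Fintype.card_coe]

end Nc

theorem frameP {c : ℕ} {X : Type v} [Group X] [Finite X] {D : Set ℕ} {P : Type u} [Group P] [Finite P]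
    (hdvd : ∀ χ : IrrCharacter P, ∃ d ∈ D, charDegree (χ : P → ℂ) ∣ d)
    (hD0 : ∀ d ∈ D, 0 < d) (hD : ∀ d ∈ D, d ^ 2 < c * Nat.card X)
    (V : Subgroup P) [hV : V.Normal] (hab : ∀ a ∈ V, ∀ b ∈ V, a * b = b * a) (hVP : ⁅V, (⊤ : Subgroup P)⁆ = V)
    (f : P →* X) (hf : Function.Surjective f) (hk : f.ker = V) (habs : ChiefP.{u} c D X) : V = ⊥ := by
  classical
  let _ : CommGroup V := { (inferInstance : Group V) with
    mul_comm := fun a b => Subtype.ext (hab a a.2 b b.2) }
  have hcard : Nat.card (V →* ℂˣ) = Nat.card V := CommGroup.card_monoidHom_of_hasEnoughRootsOfUnity V ℂ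
  have hfin : Finite (V →* ℂˣ) := Nat.finite_of_card_ne_zero (by rw [hcard]; exact Nat.card_pos.ne')
  have hidx : V.index = Nat.card X := by
    rw [← hk, Subgroup.index_ker, MonoidHom.range_eq_top.2 hf, Nat.card_congr Subgroup.topEquiv.toEquiv]
  -- the action factors through `f`
  have hker : f.ker ≤ (dual V).ker := by
    intro a ha
    rw [hk] at ha
    rw [MonoidHom.mem_ker]
    apply MulEquiv.ext
    intro l
    show dual V a l = l
    rw [dual_eq_iff]
    intro v
    congr 1
    apply Subtype.ext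
    show a * (v : P) * a⁻¹ = v
    rw [hab a ha v v.2, mul_inv_cancel_right]
  obtain ⟨ρ, hρ⟩ : ∃ ρ : X →* MulAut (V →* ℂˣ), ∀ g, ρ (f g) = dual V g := by
    refine ⟨f.liftOfSurjective hf ⟨dual V, hker⟩, fun g => ?_⟩
    exact f.liftOfRightInverse_comp_apply _ _ ⟨dual V, hker⟩ g
  have key := habs (V →* ℂˣ) ρ ?_
  · have h1 : Nat.card (V →* ℂˣ) = 1 := by
      rw [Nat.card_eq_one_iff_unique]
      exact ⟨⟨fun a b => by rw [key a, key b]⟩, ⟨1⟩⟩
    rw [hcard] at h1
    exact Subgroup.eq_bot_of_card_eq V h1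
  · intro l hl
    -- the inertia group
    let T : Subgroup P :=
      { carrier := {g | dual V g l = l}
        one_mem' := by
          show dual V 1 l = l
          rw [map_one]; rfl
        mul_mem' := by
          intro a b ha hb
          show dual V (a * b) l = l
          rw [map_mul, MulAut.mul_apply, show dual V b l = l from hb, show dual V a l = l from ha]
        inv_mem' := by
          intro a ha
          show dual V a⁻¹ l = l
          have h1 : dual V a l = l := ha
          conv_lhs => rw [← h1]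
          rw [← MulAut.mul_apply, ← map_mul, inv_mul_cancel, map_one]; rfl }
    have hT : ∀ g, g ∈ T ↔ dual V g l = l := fun g => Iff.rfl
    have hT' : ∀ g, g ∈ T ↔ ∀ v, l (MulAut.conjNormal g v) = l v := fun g => (hT g).trans (dual_eq_iff V g l)
    have hVT : V ≤ T := by
      intro a ha
      rw [← hk] at ha
      rw [hT, MonoidHom.mem_ker.1 (hker ha)]
      rfl
    have hTtop : T ≠ ⊤ := by
      intro h
      apply hl
      have h1 : V ≤ l.ker.map V.subtype := by
        conv_lhs => rw [← hVP]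
        rw [Subgroup.commutator_le]
        intro a ha g _
        have h2 : g ∈ T := by rw [h]; trivial
        have h3 := (hT' g).1 h2 ⟨a, ha⟩
        refine ⟨⟨a, ha⟩ * (MulAut.conjNormal g ⟨a, ha⟩)⁻¹, ?_, ?_⟩
        · show l _ = 1
          rw [map_mul, map_inv, h3, mul_inv_cancel]
        · show a * (g * a * g⁻¹)⁻¹ = a * g * a⁻¹ * g⁻¹
          group
      ext v
      obtain ⟨w, hw, hwv⟩ := h1 v.2
      have h2 : w = v := Subtype.ext hwv
      rw [← h2]
      exact congrArg Units.val hw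
    obtain ⟨n, e, hn, hsum, hdeg, hcl⟩ := nc_sharpP V l T hT' hVT
    -- the image in `X`
    let F : T →* X := f.comp T.subtype
    have hF : ∀ t : T, F t = f (t : P) := fun _ => rfl
    have hFk : F.ker = V.subgroupOf T := by
      ext t
      rw [MonoidHom.mem_ker, hF, ← MonoidHom.mem_ker, hk]
      rfl
    have hmem : ∀ g : X, g ∈ F.range ↔ ρ g l = l := by
      intro g
      obtain ⟨x, rfl⟩ := hf g
      rw [hρ, ← hT]
      constructor
      · rintro ⟨t, ht⟩
        rw [hF] at ht
        have h2 : (t : P)⁻¹ * x ∈ V := by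
          rw [← hk, MonoidHom.mem_ker, map_mul, map_inv, ht, inv_mul_cancel]
        have h3 : x = t * ((t : P)⁻¹ * x) := by group
        rw [h3]
        exact mul_mem t.2 (hVT h2)
      · intro hx
        exact ⟨⟨x, hx⟩, rfl⟩
    let e1 : T ⧸ V.subgroupOf T ≃* F.range :=
      (QuotientGroup.quotientMulEquivOfEq hFk.symm).trans (QuotientGroup.quotientKerEquivRange F)
    have hc1 : Nat.card F.range = V.relIndex T := by
      rw [← Nat.card_congr e1.toEquiv]
      rfl
    have hc2 : V.relIndex T * T.index = Nat.card X := by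
      rw [Subgroup.relIndex_mul_index hVT, hidx]
    have hpos : 0 < V.relIndex T := by
      rw [← hc1]; exact Nat.card_pos
    have hidx2 : F.range.index = T.index := by
      have h1 := F.range.card_mul_index
      rw [hc1, ← hc2] at h1
      exact Nat.eq_of_mul_eq_mul_left hpos h1
    have hP : SharpP D F.range := by
      refine ⟨n, e, ?_, ?_, fun i => ⟨(hdeg i).1, ?_⟩, ?_⟩
      · rwa [← card_conj_congr e1]
      · rw [hsum, hc1]
        rfl
      · obtain ⟨χ, hχ⟩ := (hdeg i).2
        obtain ⟨d, hd, hdd⟩ := hdvd χ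
        exact ⟨d, hd, by rw [hidx2, ← hχ]; exact hdd⟩
      · rintro p hp ⟨x, y, rfl⟩ ⟨k, hk⟩
        obtain ⟨a, ha1, ha2⟩ := exists_lift F hp y (k := k) ((orderOf_injective F.range.subtype F.range.subtype_injective _).trans hk)
        have h20 := hcl p hp (y ^ a) ha1
        refine h20.trans (le_of_eq ?_)
        have h21 : e1 ((y ^ a : T) : T ⧸ V.subgroupOf T) = ⟨F y, ⟨y, rfl⟩⟩ := by
          apply Subtype.ext
          show F (y ^ a) = F y
          exact ha2
        rw [← h21, ← card_centralizer_congr e1]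
    exact ⟨F.range, hmem, fun h => by
      apply hTtop
      rw [← Subgroup.index_eq_one, ← hidx2, h, Subgroup.index_top], SharpP.old hD0 hD hP, hP⟩

/-- **NC**, form `P` -/
theorem noncentralP {c : ℕ} {X : Type v} [Group X] [Finite X] {D : Set ℕ} (hD0 : ∀ d ∈ D, 0 < d)
    (hD : ∀ d ∈ D, d ^ 2 < c * Nat.card X) (habs : ChiefP.{u} c D X)
    {G : Type u} [Group G] [Finite G] (h : charDegrees G ⊆ D) (N V : Subgroup G) [N.Normal] [V.Normal]
    (hVN : V ≤ N) (e : (N ⧸ V.subgroupOf N) ≃* X) (hab : ⁅V, V⁆ = ⊥) (hne : V ≠ ⊥) (hVN' : ⁅V, N⁆ = V) : False := by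
  let f : N →* X := e.toMonoidHom.comp (QuotientGroup.mk' (V.subgroupOf N))
  have hker : f.ker = V.subgroupOf N := by
    ext x
    rw [MonoidHom.mem_ker]
    show e (QuotientGroup.mk' _ x) = 1 ↔ _
    rw [EmbeddingLike.map_eq_one_iff, ← MonoidHom.mem_ker, QuotientGroup.ker_mk']
  have h1 := frameP (c := c) (D := D) (P := N) (fun χ => ?_) hD0 hD (V.subgroupOf N) ?_ ?_ f
    (e.surjective.comp (QuotientGroup.mk'_surjective _)) hker habs
  · rw [Subgroup.subgroupOf_eq_bot, disjoint_iff, inf_eq_left.2 hVN] at h1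
    exact hne h1
  · obtain ⟨d, hd, h2⟩ := H211.S8.exists_dvd N χ
    exact ⟨d, h hd, h2⟩
  · intro a ha b hb
    have h2 : ⁅(a : G), (b : G)⁆ = 1 := by
      have h3 := Subgroup.commutator_mem_commutator (Subgroup.mem_subgroupOf.1 ha) (Subgroup.mem_subgroupOf.1 hb)
      rwa [hab, Subgroup.mem_bot] at h3
    exact Subtype.ext (commutatorElement_eq_one_iff_mul_comm.1 h2)
  · apply Subgroup.map_injective N.subtype_injective
    rw [Subgroup.map_commutator, Subgroup.subgroupOf_map_subtype, ← MonoidHom.range_eq_map, Subgroup.range_subtype,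
      inf_eq_left.2 hVN, hVN']

end Cfsg.Agent.H320.SD
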